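import Cfsg.Agent.Lib.Forms.SymmDisc

/-!
Gram matrices of tensor products of bilinear forms.
-/

set_option autoImplicit false

namespace CfsgLib.Forms

open Module
open scoped Kronecker TensorProduct

variable {F U W : Type*} [Field F] [AddCommGroup U] [Module F U] [AddCommGroup W] [Module F W]

theorem toMatrix_tmul (B₁ : LinearMap.BilinForm F U) (B₂ : LinearMap.BilinForm F W)
    {ι κ : Type*} [Fintype ι] [DecidableEq ι] [Fintype κ] [DecidableEq κ]
    (b : Basis ι F U) (c : Basis κ F W) :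
    LinearMap.BilinForm.toMatrix (b.tensorProduct c) (B₁.tmul B₂) =
      LinearMap.BilinForm.toMatrix b B₁ ⊗ₖ LinearMap.BilinForm.toMatrix c B₂ := by
  ext ⟨i, j⟩ ⟨i', j'⟩
  simp [LinearMap.BilinForm.toMatrix_apply, Basis.tensorProduct_apply, mul_comm]

theorem det_toMatrix_tmul (B₁ : LinearMap.BilinForm F U) (B₂ : LinearMap.BilinForm F W)
    {ι κ : Type*} [Fintype ι] [DecidableEq ι] [Fintype κ] [DecidableEq κ]
    (b : Basis ι F U) (c : Basis κ F W) :
    (LinearMap.BilinForm.toMatrix (b.tensorProduct c) (B₁.tmul B₂)).det =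
      (LinearMap.BilinForm.toMatrix b B₁).det ^ Fintype.card κ *
        (LinearMap.BilinForm.toMatrix c B₂).det ^ Fintype.card ι := by
  rw [toMatrix_tmul, Matrix.det_kronecker]

theorem tmul_nondegenerate [FiniteDimensional F U] [FiniteDimensional F W]
    {B₁ : LinearMap.BilinForm F U} {B₂ : LinearMap.BilinForm F W} (h₁ : B₁.Nondegenerate)
    (h₂ : B₂.Nondegenerate) : LinearMap.BilinForm.Nondegenerate (B₁.tmul B₂) := by
  rw [LinearMap.BilinForm.nondegenerate_iff_det_ne_zero
    ((finBasis F U).tensorProduct (finBasis F W)), det_toMatrix_tmul]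
  exact mul_ne_zero
    (pow_ne_zero _ ((LinearMap.BilinForm.nondegenerate_iff_det_ne_zero _).1 h₁))
    (pow_ne_zero _ ((LinearMap.BilinForm.nondegenerate_iff_det_ne_zero _).1 h₂))

theorem tmul_isSymm_of_isSymm {B₁ : LinearMap.BilinForm F U} {B₂ : LinearMap.BilinForm F W}
    (h₁ : B₁.IsSymm) (h₂ : B₂.IsSymm) : LinearMap.BilinForm.IsSymm (B₁.tmul B₂) :=
  LinearMap.BilinForm.isSymm_iff.2 (LinearMap.IsSymm.tmul (LinearMap.BilinForm.isSymm_iff.1 h₁)
    (LinearMap.BilinForm.isSymm_iff.1 h₂))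

end CfsgLib.Forms
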